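import Cfsg.Agent.Lib.Helper41.SpGen.Defs2

set_option autoImplicit false

namespace Cfsg.Agent.Lib.Helper41.SpGen

variable {F : Type*} [Field F]

theorem add_closure_sq [Finite F] (A : AddSubgroup F) (h : ∀ t : F, t ^ 2 ∈ A) (x : F) : x ∈ A := by
  by_cases h2 : (2 : F) = 0
  · have : Fintype F := Fintype.ofFinite F
    have hc : ringChar F = 2 := by
      have : CharP F 2 := CharTwo.of_one_ne_zero_of_two_eq_zero one_ne_zero h2
      exact ringChar.eq F 2
    obtain ⟨y, hy⟩ := FiniteField.isSquare_of_char_two hc x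
    rw [hy, ← sq]; exact h y
  · have e : x = ((x + 1) / 2) ^ 2 - ((x - 1) / 2) ^ 2 := by
      field_simp
      ring
    rw [e]
    exact A.sub_mem (h _) (h _)

end Cfsg.Agent.Lib.Helper41.SpGen
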