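import Cfsg.Agent.Lib.Helper41.SpGen.Defs2

set_option autoImplicit false

namespace Cfsg.Agent.Lib.Helper41.SpGen

open Matrix Cfsg Cfsg.Agent.Lib.Helper17 Cfsg.Agent.Lib.Helper17.SympRoot

variable {F : Type*} [Field F] {m : ℕ}

/-- `v` is supported on the planes `< k` -/
def Sup (k : ℕ) (v : VV m F) : Prop :=
  ∀ i : Fin m, k ≤ i.val → v (Sum.inl i) = 0 ∧ v (Sum.inr i) = 0

theorem sup_pl {k : ℕ} {i : Fin m} (h : i.val < k) (a b : F) : Sup k (pl i a b) := by
  intro j hj
  have hne : j ≠ i := by
    intro e; rw [e] at hj; omega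
  rw [pl_inl, pl_inr, if_neg hne, if_neg hne]
  exact ⟨rfl, rfl⟩

theorem sup_add {k : ℕ} {v w : VV m F} (hv : Sup k v) (hw : Sup k w) : Sup k (v + w) := by
  intro j hj
  rw [Pi.add_apply, Pi.add_apply, (hv j hj).1, (hv j hj).2, (hw j hj).1, (hw j hj).2]
  simp

theorem sup_sub {k : ℕ} {v w : VV m F} (hv : Sup k v) (hw : Sup k w) : Sup k (v - w) := by
  intro j hj
  rw [Pi.sub_apply, Pi.sub_apply, (hv j hj).1, (hv j hj).2, (hw j hj).1, (hw j hj).2]
  simp

theorem sup_zero_eq {v : VV m F} (hv : Sup 0 v) : v = 0 := by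
  funext x
  rcases x with i | i
  · exact (hv i (Nat.zero_le _)).1
  · exact (hv i (Nat.zero_le _)).2

/-- first case -/
theorem ind_caseA {K : Subgroup (SpG m F)} {k : ℕ} (hk : k + 1 < m)
    (ih : ∀ v : VV m F, Sup (k + 1) v → v ∈ SS K)
    (hpair : ∀ a b c d : F, (a ≠ 0 ∨ b ≠ 0) → (c ≠ 0 ∨ d ≠ 0) →
      pl (⟨k, by omega⟩ : Fin m) a b + pl (⟨k + 1, hk⟩ : Fin m) c d ∈ SS K)
    {v : VV m F} (hv : Sup (k + 1) v)
    (hne : v (Sum.inl (⟨k, by omega⟩ : Fin m)) ≠ 0 ∨ v (Sum.inr (⟨k, by omega⟩ : Fin m)) ≠ 0)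
    (c d : F) : v + pl (⟨k + 1, hk⟩ : Fin m) c d ∈ SS K := by
  by_cases hcd : c = 0 ∧ d = 0
  · rw [hcd.1, hcd.2, pl_zero_zero, add_zero]
    exact ih v hv
  · have hcd' : c ≠ 0 ∨ d ≠ 0 := by tauto
    set i : Fin m := ⟨k, by omega⟩ with hi
    set j : Fin m := ⟨k + 1, hk⟩ with hj
    obtain ⟨a, b, hab⟩ : ∃ a b : F, a * v (Sum.inr i) - b * v (Sum.inl i) ≠ 0 := by
      by_cases h1 : v (Sum.inr i) = 0
      · refine ⟨0, 1, ?_⟩
        have : v (Sum.inl i) ≠ 0 := by tauto
        simpa using this
      · exact ⟨1, 0, by simpa using h1⟩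
    have hab' : a ≠ 0 ∨ b ≠ 0 := by
      by_contra hcon
      push Not at hcon
      apply hab
      rw [hcon.1, hcon.2]; ring
    have hz := hpair a b c d hab' hcd'
    have hw : v - pl i a b ∈ SS K := ih _ (sup_sub hv (sup_pl (by simp [hi]) a b))
    have hij : i ≠ j := by
      intro e
      have := congrArg Fin.val e
      simp [hi, hj] at this
    have hform : Cfsg.sympForm m F (v - pl i a b) (pl i a b + pl j c d) ≠ 0 := by
      rw [sympForm_sub_left, sympForm_add_right, sympForm_add_right, form_pl, form_pl, form_pl_pl,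
        form_pl_pl_ne hij, (hv j (by simp [hj])).1, (hv j (by simp [hj])).2]
      intro h0
      apply hab
      linear_combination h0
    have := ss_add hw hz hform
    have e : v - pl i a b + (pl i a b + pl j c d) = v + pl j c d := by abel
    rw [e] at this
    exact this

theorem ind_step {K : Subgroup (SpG m F)} (hpl : ∀ (i : Fin m) (a b : F), pl i a b ∈ SS K)
    (hpair : ∀ i j : Fin m, i.val + 1 = j.val → ∀ a b c d : F, (a ≠ 0 ∨ b ≠ 0) → (c ≠ 0 ∨ d ≠ 0) →
      pl i a b + pl j c d ∈ SS K) :
    ∀ k : ℕ, k ≤ m → ∀ v : VV m F, Sup k v → v ∈ SS K := by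
  intro k
  induction k with
  | zero =>
    intro _ v hv
    rw [sup_zero_eq hv]; exact ss_zero K
  | succ k ih =>
    intro hk v hv
    have ih' := ih (by omega)
    set j : Fin m := ⟨k, by omega⟩ with hj
    set c := v (Sum.inl j) with hc
    set d := v (Sum.inr j) with hd
    have hv' : Sup k (v - pl j c d) := by
      intro i hi
      by_cases hij : i = j
      · rw [hij, Pi.sub_apply, Pi.sub_apply, pl_inl, pl_inr, if_pos rfl, if_pos rfl]
        simp [hc, hd]
      · have : k + 1 ≤ i.val := by
          have h1 : i.val ≠ k := by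
            intro e; apply hij; apply Fin.ext; simp [hj, e]
          omega
        rw [Pi.sub_apply, Pi.sub_apply, pl_inl, pl_inr, if_neg hij, if_neg hij, (hv i this).1,
          (hv i this).2]
        simp
    have hsplit : v = (v - pl j c d) + pl j c d := by abel
    rcases k with _ | k
    · rw [hsplit, sup_zero_eq hv', zero_add]
      exact hpl j c d
    · have hk1 : k + 1 < m := by omega
      set i : Fin m := ⟨k, by omega⟩ with hi
      have hP : ∀ a b c d : F, (a ≠ 0 ∨ b ≠ 0) → (c ≠ 0 ∨ d ≠ 0) →
          pl (⟨k, by omega⟩ : Fin m) a b + pl (⟨k + 1, hk1⟩ : Fin m) c d ∈ SS K :=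
        hpair _ _ rfl
      by_cases hne : (v - pl j c d) (Sum.inl i) ≠ 0 ∨ (v - pl j c d) (Sum.inr i) ≠ 0
      · rw [hsplit]
        exact ind_caseA hk1 ih' hP hv' hne c d
      · push Not at hne
        by_cases hcd : c = 0 ∧ d = 0
        · rw [hsplit, hcd.1, hcd.2, pl_zero_zero, add_zero]
          rw [hcd.1, hcd.2, pl_zero_zero, sub_zero] at hv'
          simpa using ih' v hv'
        · obtain ⟨c', d', hcd'⟩ : ∃ c' d' : F, c' * d - d' * c ≠ 0 := by
            by_cases h1 : d = 0
            · refine ⟨0, 1, ?_⟩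
              have : c ≠ 0 := by tauto
              simpa using this
            · exact ⟨1, 0, by simpa using h1⟩
          have hcd'' : c' ≠ 0 ∨ d' ≠ 0 := by
            by_contra hcon
            push Not at hcon
            apply hcd'
            rw [hcon.1, hcon.2]; ring
          have hz : pl i 1 0 + pl j c' d' ∈ SS K := hP 1 0 c' d' (Or.inl one_ne_zero) hcd''
          have hij : i ≠ j := by
            intro e
            have := congrArg Fin.val e
            simp [hi, hj] at this
          have hvi : v (Sum.inr i) = 0 := by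
            have := hne.2
            rw [Pi.sub_apply, pl_inr, if_neg hij, sub_zero] at this
            exact this
          have hvi' : v (Sum.inl i) = 0 := by
            have := hne.1
            rw [Pi.sub_apply, pl_inl, if_neg hij, sub_zero] at this
            exact this
          have hform : Cfsg.sympForm m F v (pl i 1 0 + pl j c' d') = c' * d - d' * c := by
            rw [sympForm_add_right, form_pl, form_pl, hvi, hvi']
            ring
          set lam := c' * d - d' * c with hlam
          have hg : tv (pl i 1 0 + pl j c' d') 1 ∈ K := hz 1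
          have hact : act (tv (pl i 1 0 + pl j c' d') 1) v
              = ((v - pl j c d) + pl i lam 0) + pl j (c + lam * c') (d + lam * d') := by
            rw [act_tv, hform, one_mul]
            simp only [pl]
            module
          have hmem : act (tv (pl i 1 0 + pl j c' d') 1) v ∈ SS K := by
            rw [hact]
            apply ind_caseA hk1 ih' hP (sup_add hv' (sup_pl (by simp [hi]) _ _))
            left
            rw [Pi.add_apply, hne.1, pl_inl, if_pos rfl, zero_add]
            exact hcd'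
          have := ss_act (K.inv_mem hg) hmem
          rw [act_inv_act] at this
          exact this

theorem all_mem {K : Subgroup (SpG m F)} (hpl : ∀ (i : Fin m) (a b : F), pl i a b ∈ SS K)
    (hpair : ∀ i j : Fin m, i.val + 1 = j.val → ∀ a b c d : F, (a ≠ 0 ∨ b ≠ 0) → (c ≠ 0 ∨ d ≠ 0) →
      pl i a b + pl j c d ∈ SS K) : ∀ v : VV m F, v ∈ SS K := by
  intro v
  apply ind_step hpl hpair m le_rfl v
  intro i hi
  exact absurd i.2 (by omega)

end Cfsg.Agent.Lib.Helper41.SpGen
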