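import Cfsg.Agent.Lib.Helper41.SpGen.YACT

set_option autoImplicit false

namespace Cfsg.Agent.Lib.Helper41.SpGen

open Matrix Cfsg Cfsg.Agent.Lib.Helper17 Cfsg.Agent.Lib.Helper17.SympRoot

variable {F : Type*} [Field F] {n : ℕ}

theorem orb_succ {K : Subgroup (SpG (n + 2) F)} (hy : yy ∈ K) (a b : F)
    (h : pl (1 : Fin (n + 2)) a b ∈ SS K) :
    ∀ (k : ℕ) (hk : k + 1 < n + 2), pl (⟨k + 1, hk⟩ : Fin (n + 2)) a b ∈ SS K := by
  intro k
  induction k with
  | zero =>
    intro hk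
    have e : (⟨0 + 1, hk⟩ : Fin (n + 2)) = 1 := by
      apply Fin.ext; simp
    rw [e]; exact h
  | succ k ih =>
    intro hk
    have hk' : k + 1 < n + 2 := by omega
    have h1 := ss_act hy (ih hk')
    have hne : (⟨k + 1, hk'⟩ : Fin (n + 2)) ≠ 0 := by
      intro h0
      have := congrArg Fin.val h0
      simp at this
    rw [act_yy_pl hne, finRotate_of_lt (by omega)] at h1
    exact h1

theorem orb_aux {K : Subgroup (SpG (n + 2) F)} (hy : yy ∈ K) (a b : F)
    (h : pl (1 : Fin (n + 2)) a b ∈ SS K) : ∀ i : Fin (n + 2), pl i a b ∈ SS K := by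
  intro i
  obtain ⟨k, hk⟩ := i
  rcases k with _ | k
  · have h1 := ss_act hy (orb_succ hy a b h n (by omega))
    have hne : (⟨n + 1, by omega⟩ : Fin (n + 2)) ≠ 0 := by
      intro h0
      have := congrArg Fin.val h0
      simp at this
    rw [act_yy_pl hne] at h1
    have e : (⟨n + 1, by omega⟩ : Fin (n + 2)) = Fin.last (n + 1) := rfl
    rw [e, finRotate_last] at h1
    exact h1
  · exact orb_succ hy a b h k hk

theorem orb {K : Subgroup (SpG (n + 2) F)} (hy : yy ∈ K) (h : ff 1 ∈ SS K) :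
    ∀ i : Fin (n + 2), ee i ∈ SS K ∧ ff i ∈ SS K := by
  have hf : ∀ i : Fin (n + 2), pl i (0 : F) 1 ∈ SS K := by
    apply orb_aux hy
    rw [pl_zero_one]; exact h
  have he : ∀ i : Fin (n + 2), pl i (1 : F) 0 ∈ SS K := by
    apply orb_aux hy
    have h1 := ss_act hy (hf 0)
    rw [act_yy_pl_zero, neg_zero] at h1
    exact h1
  intro i
  refine ⟨?_, ?_⟩
  · rw [← pl_one_zero]; exact he i
  · rw [← pl_zero_one]; exact hf i

end Cfsg.Agent.Lib.Helper41.SpGen
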