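import Cfsg.Agent.Lib.Helper41.SpGen.Defs2

set_option autoImplicit false

namespace Cfsg.Agent.Lib.Helper41.SpGen

open Matrix Cfsg Cfsg.Agent.Lib.Helper17 Cfsg.Agent.Lib.Helper17.SympRoot

variable {F : Type*} [Field F] {m : ℕ}

/-- one move inside the plane `i` -/
theorem pair_move {K : Subgroup (SpG m F)} {i : Fin m} (hi : ∀ a b : F, pl i a b ∈ SS K)
    {r : VV m F} (hr : ∀ a b : F, Cfsg.sympForm m F r (pl i a b) = 0)
    {a0 b0 a b : F} (h : a * b0 - b * a0 ≠ 0) (hv : pl i a0 b0 + r ∈ SS K) :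
    pl i a b + r ∈ SS K := by
  have h3 := ss_act (hi (a - a0) (b - b0) (a * b0 - b * a0)⁻¹) hv
  rw [act_tv, sympForm_add_left, hr, add_zero, form_pl_pl] at h3
  have e : (a - a0) * b0 - (b - b0) * a0 = a * b0 - b * a0 := by ring
  rw [e, inv_mul_cancel₀ h, one_smul] at h3
  have e2 : pl i a0 b0 + r + pl i (a - a0) (b - b0) = pl i a b + r := by
    simp only [pl]; module
  rw [e2] at h3
  exact h3

theorem pair_plane {K : Subgroup (SpG m F)} {i : Fin m} (hi : ∀ a b : F, pl i a b ∈ SS K)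
    {r : VV m F} (hr : ∀ a b : F, Cfsg.sympForm m F r (pl i a b) = 0)
    {a0 b0 : F} (h0 : a0 ≠ 0 ∨ b0 ≠ 0) (hv : pl i a0 b0 + r ∈ SS K) (a b : F)
    (h : a ≠ 0 ∨ b ≠ 0) : pl i a b + r ∈ SS K := by
  by_cases hd : a * b0 - b * a0 = 0
  · -- proportional: go through a third vector
    obtain ⟨a1, b1, h1, h2⟩ : ∃ a1 b1 : F, a1 * b0 - b1 * a0 ≠ 0 ∧ a * b1 - b * a1 ≠ 0 := by
      by_cases ha0 : a0 = 0
      · have hb0 : b0 ≠ 0 := by tauto
        have ha : a = 0 := by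
          rw [ha0, mul_zero, sub_zero] at hd
          exact (mul_eq_zero.1 hd).resolve_right hb0
        have hb : b ≠ 0 := by tauto
        refine ⟨1, 0, ?_, ?_⟩
        · simpa using hb0
        · simpa [ha] using hb
      · by_cases ha : a = 0
        · have hb : b ≠ 0 := by tauto
          exfalso
          rw [ha, zero_mul, zero_sub, neg_eq_zero] at hd
          exact (mul_ne_zero hb ha0) hd
        · refine ⟨0, 1, ?_, ?_⟩
          · simpa using ha0
          · simpa using ha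
    exact pair_move hi hr h2 (pair_move hi hr h1 hv)
  · exact pair_move hi hr hd hv

theorem pair_mem {K : Subgroup (SpG m F)} {i j : Fin m} (hij : i ≠ j)
    (hi : ∀ a b : F, pl i a b ∈ SS K) (hj : ∀ a b : F, pl j a b ∈ SS K)
    {a0 b0 c0 d0 : F} (h0 : a0 ≠ 0 ∨ b0 ≠ 0) (h0' : c0 ≠ 0 ∨ d0 ≠ 0)
    (hv : pl i a0 b0 + pl j c0 d0 ∈ SS K) (a b c d : F) (h : a ≠ 0 ∨ b ≠ 0) (h' : c ≠ 0 ∨ d ≠ 0) :
    pl i a b + pl j c d ∈ SS K := by
  have h1 : pl i a b + pl j c0 d0 ∈ SS K :=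
    pair_plane hi (fun x y => form_pl_pl_ne hij.symm _ _ _ _) h0 hv a b h
  rw [add_comm] at h1 ⊢
  exact pair_plane hj (fun x y => form_pl_pl_ne hij _ _ _ _) h0' h1 c d h'

end Cfsg.Agent.Lib.Helper41.SpGen
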