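import Cfsg.Agent.Lib.Helper41.SpGen.YACT
import Cfsg.Agent.Lib.Helper41.SpGen.PAIR

set_option autoImplicit false

namespace Cfsg.Agent.Lib.Helper41.SpGen

open Matrix Cfsg Cfsg.Agent.Lib.Helper17 Cfsg.Agent.Lib.Helper17.SympRoot

variable {F : Type*} [Field F] {n : ℕ}

theorem shift_aux {K : Subgroup (SpG (n + 2) F)} (hy : yy ∈ K)
    {a0 b0 c0 d0 : F} (h0 : a0 ≠ 0 ∨ b0 ≠ 0) (h0' : c0 ≠ 0 ∨ d0 ≠ 0)
    (hv : pl (0 : Fin (n + 2)) a0 b0 + pl 1 c0 d0 ∈ SS K) :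
    ∀ (k : ℕ) (hk : k + 1 < n + 2), ∃ a b c d : F, (a ≠ 0 ∨ b ≠ 0) ∧ (c ≠ 0 ∨ d ≠ 0) ∧
      pl (⟨k, by omega⟩ : Fin (n + 2)) a b + pl (⟨k + 1, hk⟩ : Fin (n + 2)) c d ∈ SS K := by
  intro k
  induction k with
  | zero =>
    intro hk
    refine ⟨a0, b0, c0, d0, h0, h0', ?_⟩
    have e : (⟨0 + 1, hk⟩ : Fin (n + 2)) = 1 := by
      apply Fin.ext; simp
    have e0 : (⟨0, by omega⟩ : Fin (n + 2)) = 0 := rfl
    rw [e, e0]; exact hv
  | succ k ih =>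
    intro hk
    obtain ⟨a, b, c, d, h1, h2, h3⟩ := ih (by omega)
    have h4 := ss_act hy h3
    have hne : (⟨k + 1, by omega⟩ : Fin (n + 2)) ≠ 0 := by
      intro h0
      have := congrArg Fin.val h0
      simp at this
    rw [act_add, act_yy_pl hne, finRotate_of_lt (by omega)] at h4
    rcases k with _ | k
    · have e0 : (⟨0, by omega⟩ : Fin (n + 2)) = 0 := rfl
      rw [e0, act_yy_pl_zero] at h4
      have e : (⟨0 + 1, by omega⟩ : Fin (n + 2)) = 1 := by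
        apply Fin.ext; simp
      refine ⟨b, -a, c, d, ?_, h2, ?_⟩
      · rcases h1 with h | h
        · right; exact neg_ne_zero.2 h
        · left; exact h
      · rw [e]; exact h4
    · have hne' : (⟨k + 1, by omega⟩ : Fin (n + 2)) ≠ 0 := by
        intro h0
        have := congrArg Fin.val h0
        simp at this
      rw [act_yy_pl hne', finRotate_of_lt (by omega)] at h4
      exact ⟨a, b, c, d, h1, h2, h4⟩

theorem shift {K : Subgroup (SpG (n + 2) F)} (hy : yy ∈ K)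
    (hpl : ∀ (i : Fin (n + 2)) (a b : F), pl i a b ∈ SS K)
    {a0 b0 c0 d0 : F} (h0 : a0 ≠ 0 ∨ b0 ≠ 0) (h0' : c0 ≠ 0 ∨ d0 ≠ 0)
    (hv : pl (0 : Fin (n + 2)) a0 b0 + pl 1 c0 d0 ∈ SS K) :
    ∀ i j : Fin (n + 2), i.val + 1 = j.val → ∀ a b c d : F, (a ≠ 0 ∨ b ≠ 0) → (c ≠ 0 ∨ d ≠ 0) →
      pl i a b + pl j c d ∈ SS K := by
  intro i j hij a b c d h h'
  obtain ⟨k, hk⟩ := i
  obtain ⟨l, hl⟩ := j
  simp only at hij
  subst hij
  obtain ⟨a1, b1, c1, d1, h1, h2, h3⟩ := shift_aux hy h0 h0' hv k hl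
  have hne : (⟨k, hk⟩ : Fin (n + 2)) ≠ ⟨k + 1, hl⟩ := by
    intro h0
    have := congrArg Fin.val h0
    simp at this
  exact pair_mem hne (hpl _) (hpl _) h1 h2 h3 a b c d h h'

end Cfsg.Agent.Lib.Helper41.SpGen
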