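import Cfsg.Agent.Lib.Helper41.SpGen.PLANE
import Cfsg.Agent.Lib.Helper41.SpGen.IND
import Cfsg.Agent.Lib.Helper41.SpGen.ORB
import Cfsg.Agent.Lib.Helper41.SpGen.SHIFT

set_option autoImplicit false

/-! Ladder SPG, MAIN (helper41). -/

namespace Cfsg.Agent.Lib.Helper41.SpGen

open Matrix Cfsg Cfsg.Agent.Lib.Helper17 Cfsg.Agent.Lib.Helper17.SympRoot

variable {F : Type*} [Field F] {n : ℕ}

/-- MAIN (helper41). -/
theorem main_top {K : Subgroup (SpG (n + 2) F)} (hy : yy ∈ K) (hf : ff 1 ∈ SS K)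
    {g : SpG (n + 2) F} (hg : g ∈ K) {a0 b0 c0 d0 : F} (h0 : a0 ≠ 0 ∨ b0 ≠ 0) (h0' : c0 ≠ 0 ∨ d0 ≠ 0)
    (hgf : act g (ff 0) = pl 0 a0 b0 + pl 1 c0 d0) : K = ⊤ := by
  have h1 := orb hy hf
  have hpl : ∀ (i : Fin (n + 2)) (a b : F), pl i a b ∈ SS K :=
    fun i a b => plane_mem (h1 i).1 (h1 i).2 a b
  have hv : pl (0 : Fin (n + 2)) a0 b0 + pl 1 c0 d0 ∈ SS K := hgf ▸ ss_act hg (h1 0).2
  exact top_of_ss (all_mem hpl (shift hy hpl h0 h0' hv))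

end Cfsg.Agent.Lib.Helper41.SpGen
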