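import Cfsg.Agent.Lib.Helper41.SpGen.ADD

set_option autoImplicit false

namespace Cfsg.Agent.Lib.Helper41.SpGen

open Matrix Cfsg Cfsg.Agent.Lib.Helper17 Cfsg.Agent.Lib.Helper17.SympRoot

variable {F : Type*} [Field F] {m : ℕ}

theorem scale [Finite F] {K : Subgroup (SpG m F)} {v : VV m F} (h1 : tv v 1 ∈ K)
    (h : ∀ t : F, t ≠ 0 → ∃ g ∈ K, act g v = t • v) : v ∈ SS K := by
  let A : AddSubgroup F :=
    { carrier := {c | tv v c ∈ K}
      zero_mem' := by
        show tv v 0 ∈ K
        rw [tv_zero]; exact K.one_mem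
      add_mem' := by
        intro a b ha hb
        show tv v (a + b) ∈ K
        rw [← tv_mul]; exact K.mul_mem ha hb
      neg_mem' := by
        intro a ha
        show tv v (-a) ∈ K
        rw [← tv_inv]; exact K.inv_mem ha }
  intro c
  have hA : c ∈ A := by
    apply add_closure_sq A
    intro t
    show tv v (t ^ 2) ∈ K
    by_cases ht : t = 0
    · rw [ht, zero_pow two_ne_zero, tv_zero]; exact K.one_mem
    · obtain ⟨g, hg, hgv⟩ := h t ht
      have e : tv v (t ^ 2) = g * tv v 1 * g⁻¹ := by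
        rw [conj_tv', hgv, tv_smul, mul_one]
      rw [e]
      exact K.mul_mem (K.mul_mem hg h1) (K.inv_mem hg)
  exact hA

end Cfsg.Agent.Lib.Helper41.SpGen
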