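import Cfsg.Agent.Lib.Helper41.SpGen.YACT

set_option autoImplicit false

namespace Cfsg.Agent.Lib.Helper41.SpGen

open Matrix Cfsg Cfsg.Agent.Lib.Helper17 Cfsg.Agent.Lib.Helper17.SympRoot

variable {F : Type*} [Field F] {n : ℕ}

theorem tv_ff_one_mem {K : Subgroup (SpG (n + 2) F)} (hy : yy ∈ K) (hu : tv (ee 0) 1 ∈ K) :
    tv (ff 1) (1 : F) ∈ K := by
  have h1 : yy * tv (ee 0) (1 : F) * yy⁻¹ ∈ K := K.mul_mem (K.mul_mem hy hu) (K.inv_mem hy)
  rw [conj_tv', ← pl_one_zero, act_yy_pl_zero] at h1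
  have e : pl (1 : Fin (n + 2)) (0 : F) (-1) = (-1 : F) • ff 1 := by
    simp [pl]
  rw [e, tv_smul] at h1
  simpa using h1

theorem tv_pow {m : ℕ} (p : VV m F) (c : F) (j : ℕ) : tv p c ^ j = tv p (j * c) := by
  induction j with
  | zero => rw [pow_zero, Nat.cast_zero, zero_mul, tv_zero]
  | succ j ih =>
    rw [pow_succ, ih, tv_mul]
    congr 1
    push_cast
    ring

end Cfsg.Agent.Lib.Helper41.SpGen
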