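import Cfsg.Agent.Lib.Helper41.SpGen.SD
import Cfsg.Agent.Lib.Helper41.SpGen.TV
import Cfsg.Agent.Lib.Helper41.SpGen.SCALE
import Cfsg.Agent.Lib.Helper41.SpGen.MAIN

set_option autoImplicit false

namespace Cfsg.Agent.Lib.Helper41.SpGen

open Matrix Cfsg Cfsg.Agent.Lib.Helper17 Cfsg.Agent.Lib.Helper17.SympRoot

variable {F : Type*} [Field F] {n : ℕ}

theorem two_gen_two [Fintype F] (hq : Fintype.card F = 2) :
    ∃ a b : SpG (n + 2) F, Subgroup.closure ({a, b} : Set (SpG (n + 2) F)) = ⊤ := by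
  classical
  refine ⟨tv (ee 0) 1 * sD, yy, ?_⟩
  set K : Subgroup (SpG (n + 2) F) :=
    Subgroup.closure ({tv (ee 0) 1 * sD, yy} : Set (SpG (n + 2) F)) with hK
  have ha : tv (ee 0) 1 * sD ∈ K := Subgroup.subset_closure (by simp)
  have hb : (yy : SpG (n + 2) F) ∈ K := Subgroup.subset_closure (by simp)
  have h2 : (2 : F) = 0 := by
    have := FiniteField.cast_card_eq_zero F
    rw [hq] at this
    exact_mod_cast this
  have hcomm : Commute (tv (ee 0) (1 : F)) (sD : SpG (n + 2) F) := sD_comm 1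
  have h3 : ((3 : ℕ) : F) * 1 = 1 := by
    have : ((3 : ℕ) : F) = 2 + 1 := by norm_num
    rw [this, h2]; simp
  have hpow : (tv (ee 0) 1 * sD : SpG (n + 2) F) ^ 3 = tv (ee 0) 1 := by
    rw [hcomm.mul_pow, tv_pow, sD_cube h2, mul_one, h3]
  have hu : tv (ee 0) (1 : F) ∈ K := hpow ▸ K.pow_mem ha _
  have hs : (sD : SpG (n + 2) F) ∈ K := by
    have := K.mul_mem (K.inv_mem hu) ha
    rw [inv_mul_cancel_left] at this
    exact this
  have hf1 : ff 1 ∈ SS K := by
    apply scale (tv_ff_one_mem hb hu)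
    intro t ht
    have ht1 : t = 1 := by
      have := FiniteField.pow_card_sub_one_eq_one t ht
      rw [hq] at this
      simpa using this
    exact ⟨1, K.one_mem, by rw [act_one, ht1, one_smul]⟩
  exact main_top hb hf1 hs (Or.inl one_ne_zero) (Or.inl (neg_ne_zero.2 one_ne_zero)) act_sD_ff_zero

end Cfsg.Agent.Lib.Helper41.SpGen
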