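import Cfsg.Agent.Lib.Helper41.SpGen.SC
import Cfsg.Agent.Lib.Helper41.SpGen.TV
import Cfsg.Agent.Lib.Helper41.SpGen.SCALE
import Cfsg.Agent.Lib.Helper41.SpGen.MAIN

set_option autoImplicit false

namespace Cfsg.Agent.Lib.Helper41.SpGen

open Matrix Cfsg Cfsg.Agent.Lib.Helper17 Cfsg.Agent.Lib.Helper17.SympRoot

variable {F : Type*} [Field F] {n : ℕ}

theorem two_gen_ge_three [Fintype F] (hq : 3 ≤ Fintype.card F) :
    ∃ a b : SpG (n + 2) F, Subgroup.closure ({a, b} : Set (SpG (n + 2) F)) = ⊤ := by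
  classical
  obtain ⟨k, hk⟩ := IsCyclic.exists_generator (α := Fˣ)
  refine ⟨tv (ee 0) 1 * sC k, yy, ?_⟩
  set K : Subgroup (SpG (n + 2) F) :=
    Subgroup.closure ({tv (ee 0) 1 * sC k, yy} : Set (SpG (n + 2) F)) with hK
  have ha : tv (ee 0) 1 * sC k ∈ K := Subgroup.subset_closure (by simp)
  have hb : (yy : SpG (n + 2) F) ∈ K := Subgroup.subset_closure (by simp)
  have hcomm : Commute (tv (ee 0) (1 : F)) (sC k : SpG (n + 2) F) := sC_comm k 1
  have hk1 : k ^ (Fintype.card F - 1) = 1 := by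
    rw [← Fintype.card_units]; exact pow_card_eq_one
  have hcast : ((Fintype.card F - 1 : ℕ) : F) = -1 := by
    rw [Nat.cast_sub (by omega), FiniteField.cast_card_eq_zero]; simp
  have hpow : (tv (ee 0) 1 * sC k : SpG (n + 2) F) ^ (Fintype.card F - 1) = tv (ee 0) (-1) := by
    rw [hcomm.mul_pow, tv_pow, sC_pow, hk1, sC_one, mul_one, hcast, mul_one]
  have hu' : tv (ee 0) (-1 : F) ∈ K := hpow ▸ K.pow_mem ha _
  have hu : tv (ee 0) (1 : F) ∈ K := by
    have := K.inv_mem hu'
    rw [tv_inv, neg_neg] at this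
    exact this
  have hs : (sC k : SpG (n + 2) F) ∈ K := by
    have := K.mul_mem (K.inv_mem hu) ha
    rw [inv_mul_cancel_left] at this
    exact this
  have hf1 : ff 1 ∈ SS K := by
    apply scale (tv_ff_one_mem hb hu)
    intro t ht
    have hmem : Units.mk0 t ht ∈ Submonoid.powers k :=
      (mem_powers_iff_mem_zpowers).2 (hk _)
    obtain ⟨j, hj⟩ := hmem
    have hj' : k ^ j = Units.mk0 t ht := hj
    refine ⟨sC k ^ j, K.pow_mem hs j, ?_⟩
    rw [sC_pow, act_sC_ff_one, hj']
    rfl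
  have hkne : 1 - (k : F) ≠ 0 := by
    intro h0
    have hk1' : k = 1 := by
      apply Units.ext
      rw [Units.val_one]
      exact (sub_eq_zero.1 h0).symm
    have hall : ∀ x : Fˣ, x = 1 := by
      intro x
      have := hk x
      rw [hk1', Subgroup.zpowers_one_eq_bot, Subgroup.mem_bot] at this
      exact this
    have hsub : Subsingleton Fˣ := ⟨fun x y => by rw [hall x, hall y]⟩
    have hc : Fintype.card Fˣ ≤ 1 := Fintype.card_le_one_iff_subsingleton.2 hsub
    rw [Fintype.card_units] at hc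
    omega
  exact main_top hb hf1 hs (Or.inr one_ne_zero) (Or.inr hkne) (act_sC_ff_zero k)

end Cfsg.Agent.Lib.Helper41.SpGen
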