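import Cfsg.Agent.Lib.Helper17.SympRoot

set_option autoImplicit false

/-! Ladder SPG (helper41): `Sp_{2m}(q)` is generated by two elements (S2411).  Definitions + basic API. -/

namespace Cfsg.Agent.Lib.Helper41.SpGen

open Matrix Cfsg Cfsg.Agent.Lib.Helper17 Cfsg.Agent.Lib.Helper17.SympRoot

variable {F : Type*} [Field F] {m : ℕ}

/-- the natural module -/
abbrev VV (m : ℕ) (F : Type*) := Fin m ⊕ Fin m → F

/-- the symplectic group -/
abbrev SpG (m : ℕ) (F : Type*) [Field F] := Matrix.symplecticGroup (Fin m) F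

/-- the action on vectors -/
def act (g : SpG m F) (v : VV m F) : VV m F :=
  (g : Matrix (Fin m ⊕ Fin m) (Fin m ⊕ Fin m) F) *ᵥ v

theorem act_one (v : VV m F) : act (1 : SpG m F) v = v := by
  simp [act]

theorem act_mul (g h : SpG m F) (v : VV m F) : act (g * h) v = act g (act h v) :=
  sp_coe_mul_mulVec m g h v

theorem act_inv_act (g : SpG m F) (v : VV m F) : act g⁻¹ (act g v) = v := sp_inv_mulVec m g v

theorem act_act_inv (g : SpG m F) (v : VV m F) : act g (act g⁻¹ v) = v := sp_mulVec_inv m g v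

theorem act_add (g : SpG m F) (v w : VV m F) : act g (v + w) = act g v + act g w :=
  Matrix.mulVec_add _ _ _

theorem act_sub (g : SpG m F) (v w : VV m F) : act g (v - w) = act g v - act g w :=
  Matrix.mulVec_sub _ _ _

theorem act_neg (g : SpG m F) (v : VV m F) : act g (-v) = -act g v :=
  Matrix.mulVec_neg _ _

theorem act_zero (g : SpG m F) : act g (0 : VV m F) = 0 := Matrix.mulVec_zero _

theorem act_smul (g : SpG m F) (a : F) (v : VV m F) : act g (a • v) = a • act g v :=
  Matrix.mulVec_smul _ _ _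

theorem form_act (g : SpG m F) (v w : VV m F) :
    Cfsg.sympForm m F (act g v) (act g w) = Cfsg.sympForm m F v w := sp_sympForm m g v w

theorem act_tv (p : VV m F) (c : F) (v : VV m F) :
    act (tv p c) v = v + (c * Cfsg.sympForm m F v p) • p := tv_mulVec p c v

theorem conj_tv' (g : SpG m F) (p : VV m F) (c : F) : g * tv p c * g⁻¹ = tv (act g p) c :=
  conj_tv g p c

theorem ext_act {g h : SpG m F} (H : ∀ v, act g v = act h v) : g = h := sp_ext H

theorem act_spOfLinear (g : VV m F →ₗ[F] VV m F)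
    (hg : ∀ u v, Cfsg.sympForm m F (g u) (g v) = Cfsg.sympForm m F u v) (x : VV m F) :
    act (spOfLinear m g hg) x = g x := spOfLinear_mulVec m g hg x

/-- standard basis -/
def ee (i : Fin m) : VV m F := Pi.single (Sum.inl i) 1

/-- standard basis -/
def ff (i : Fin m) : VV m F := Pi.single (Sum.inr i) 1

theorem form_ee (x : VV m F) (i : Fin m) : Cfsg.sympForm m F x (ee i) = x (Sum.inr i) :=
  sympForm_single_inl_right m x i

theorem form_ff (x : VV m F) (i : Fin m) : Cfsg.sympForm m F x (ff i) = - x (Sum.inl i) :=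
  sympForm_single_inr_right m x i

theorem ee_inl (i j : Fin m) : (ee i : VV m F) (Sum.inl j) = if j = i then 1 else 0 := by
  simp [ee, Pi.single_apply]

theorem ee_inr (i j : Fin m) : (ee i : VV m F) (Sum.inr j) = 0 := by
  simp [ee, Pi.single_apply]

theorem ff_inl (i j : Fin m) : (ff i : VV m F) (Sum.inl j) = 0 := by
  simp [ff, Pi.single_apply]

theorem ff_inr (i j : Fin m) : (ff i : VV m F) (Sum.inr j) = if j = i then 1 else 0 := by
  simp [ff, Pi.single_apply]

theorem form_ee_ee (i j : Fin m) : Cfsg.sympForm m F (ee i) (ee j) = 0 := by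
  rw [form_ee, ee_inr]

theorem form_ff_ff (i j : Fin m) : Cfsg.sympForm m F (ff i) (ff j) = 0 := by
  rw [form_ff, ff_inl, neg_zero]

theorem form_ff_ee (i j : Fin m) : Cfsg.sympForm m F (ff i) (ee j) = if j = i then 1 else 0 := by
  rw [form_ee, ff_inr]

theorem form_ee_ff (i j : Fin m) : Cfsg.sympForm m F (ee i) (ff j) = if j = i then -1 else 0 := by
  rw [form_ff, ee_inl]; split_ifs <;> simp

/-- the vector `a e_i + b f_i` of the `i`-th hyperbolic plane -/
def pl (i : Fin m) (a b : F) : VV m F := a • ee i + b • ff i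

theorem form_pl (x : VV m F) (i : Fin m) (a b : F) :
    Cfsg.sympForm m F x (pl i a b) = a * x (Sum.inr i) - b * x (Sum.inl i) := by
  rw [pl, sympForm_add_right, sympForm_smul_right, sympForm_smul_right, form_ee, form_ff]; ring

theorem pl_inl (i j : Fin m) (a b : F) : pl i a b (Sum.inl j) = if j = i then a else 0 := by
  simp [pl, ee_inl, ff_inl]

theorem pl_inr (i j : Fin m) (a b : F) : pl i a b (Sum.inr j) = if j = i then b else 0 := by
  simp [pl, ee_inr, ff_inr]

theorem form_pl_pl (i : Fin m) (a b c d : F) :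
    Cfsg.sympForm m F (pl i a b) (pl i c d) = c * b - d * a := by
  rw [form_pl, pl_inl, pl_inr, if_pos rfl, if_pos rfl]

theorem form_pl_pl_ne {i j : Fin m} (h : i ≠ j) (a b c d : F) :
    Cfsg.sympForm m F (pl i a b) (pl j c d) = 0 := by
  rw [form_pl, pl_inl, pl_inr, if_neg h.symm, if_neg h.symm]; ring

theorem pl_add (i : Fin m) (a b c d : F) : pl i a b + pl i c d = pl i (a + c) (b + d) := by
  simp only [pl]; module

theorem pl_smul (i : Fin m) (t a b : F) : t • pl i a b = pl i (t * a) (t * b) := by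
  simp only [pl]; module

theorem pl_one_zero (i : Fin m) : pl i (1 : F) 0 = ee i := by simp [pl]

theorem pl_zero_one (i : Fin m) : pl i (0 : F) 1 = ff i := by simp [pl]

theorem pl_zero_zero (i : Fin m) : pl i (0 : F) 0 = 0 := by simp [pl]

/-- the vectors `v` all of whose transvections lie in `K` -/
def SS (K : Subgroup (SpG m F)) : Set (VV m F) := {v | ∀ c : F, tv v c ∈ K}

theorem ss_act {K : Subgroup (SpG m F)} {g : SpG m F} (hg : g ∈ K) {v : VV m F} (hv : v ∈ SS K) :
    act g v ∈ SS K := by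
  intro c
  rw [← conj_tv']
  exact K.mul_mem (K.mul_mem hg (hv c)) (K.inv_mem hg)

theorem ss_smul {K : Subgroup (SpG m F)} (a : F) {v : VV m F} (hv : v ∈ SS K) : a • v ∈ SS K := by
  intro c
  rw [tv_smul]
  exact hv _

theorem ss_zero (K : Subgroup (SpG m F)) : (0 : VV m F) ∈ SS K := by
  intro c
  have : tv (0 : VV m F) c = 1 := by
    apply ext_act
    intro v
    rw [act_tv, act_one]; simp
  rw [this]; exact K.one_mem

theorem ss_add {K : Subgroup (SpG m F)} {v w : VV m F} (hv : v ∈ SS K) (hw : w ∈ SS K)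
    (h : Cfsg.sympForm m F v w ≠ 0) : v + w ∈ SS K := by
  have h1 := ss_act (hw (Cfsg.sympForm m F v w)⁻¹) hv
  rw [act_tv, inv_mul_cancel₀ h, one_smul] at h1
  exact h1

theorem top_of_ss {K : Subgroup (SpG m F)} (h : ∀ v, v ∈ SS K) : K = ⊤ := by
  rw [eq_top_iff, ← Cfsg.Agent.S0765.result m, Subgroup.closure_le]
  rintro A ⟨w, c, hA⟩
  have : A = tv w c := Subtype.ext hA
  rw [this]
  exact h w c

end Cfsg.Agent.Lib.Helper41.SpGen
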