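import Cfsg.Agent.Lib.Helper41.SpGen.Defs

set_option autoImplicit false

/-! Ladder SPG (helper41): the concrete elements. -/

namespace Cfsg.Agent.Lib.Helper41.SpGen

open Matrix Cfsg Cfsg.Agent.Lib.Helper17 Cfsg.Agent.Lib.Helper17.SympRoot

variable {F : Type*} [Field F] {n : ℕ}

/-- the permutation of the coordinates rotating the hyperbolic planes -/
def sg (n : ℕ) : (Fin (n + 2) ⊕ Fin (n + 2)) ≃ (Fin (n + 2) ⊕ Fin (n + 2)) :=
  Equiv.sumCongr (finRotate (n + 2)) (finRotate (n + 2))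

theorem rot_form (u v : VV (n + 2) F) :
    Cfsg.sympForm (n + 2) F (LinearMap.funLeft F F (sg n).symm u)
      (LinearMap.funLeft F F (sg n).symm v) = Cfsg.sympForm (n + 2) F u v := by
  rw [sympForm_eq_sum, sympForm_eq_sum]
  rw [← Equiv.sum_comp (finRotate (n + 2))]
  apply Finset.sum_congr rfl
  intro i _
  simp [LinearMap.funLeft_apply, sg]

/-- `e_i ↦ e_{i+1}`, `f_i ↦ f_{i+1}` (cyclically) -/
noncomputable def rot : SpG (n + 2) F :=
  spOfLinear (n + 2) (LinearMap.funLeft F F (sg n).symm) rot_form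

theorem act_rot (x : VV (n + 2) F) : act (rot : SpG (n + 2) F) x = x ∘ (sg n).symm := by
  rw [rot, act_spOfLinear]
  rfl

/-- `e_0 ↦ -f_0`, `f_0 ↦ e_0` -/
def w0 : SpG (n + 2) F := tv (ee 0) 1 * tv (ff 0) 1 * tv (ee 0) 1

/-- the Coxeter element -/
noncomputable def yy : SpG (n + 2) F := rot * w0

/-- the root element `x ↦ x + (x,e_0) f_1 + (x,f_1) e_0` -/
def nn : SpG (n + 2) F := tv (ee 0 + ff 1) 1 * tv (ee 0) (-1) * tv (ff 1) (-1)

/-- diagonal matrix in `SL₂` -/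
def dg (t : Fˣ) : SpecialLinearGroup (Fin 2) F :=
  ⟨!![(t : F), 0; 0, ((t⁻¹ : Fˣ) : F)], by simp [det_fin_two_of]⟩

theorem form_ff_ee_one : Cfsg.sympForm (n + 2) F (ff 1) (ee 1) = 1 := by
  rw [form_ff_ee, if_pos rfl]

/-- the torus element `f_1 ↦ t f_1`, `e_1 ↦ t⁻¹ e_1` -/
noncomputable def hh (t : Fˣ) : SpG (n + 2) F := phi (ff 1) (ee 1) form_ff_ee_one (dg t)

/-- the conjugated torus element -/
noncomputable def sC (t : Fˣ) : SpG (n + 2) F := nn * hh t * nn⁻¹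

/-- element of order 3 in characteristic 2 -/
def s3 : SpG (n + 2) F := tv (ee 1) 1 * tv (ff 1) 1

/-- its conjugate -/
def sD : SpG (n + 2) F := nn * s3 * nn⁻¹

end Cfsg.Agent.Lib.Helper41.SpGen
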