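import Cfsg.Agent.Lib.Helper41.SpGen.CASE3
import Cfsg.Agent.Lib.Helper41.SpGen.CASE2

set_option autoImplicit false

/-! Ladder SPG, FINAL (helper41). -/

namespace Cfsg.Agent.Lib.Helper41.SpGen

/-- FINAL (helper41). -/
theorem two_gen {F : Type*} [Field F] [Fintype F] (m : ℕ) (hm : 2 ≤ m) :
    ∃ a b : Cfsg.PSp m F, Subgroup.closure ({a, b} : Set (Cfsg.PSp m F)) = ⊤ := by
  obtain ⟨n, rfl⟩ : ∃ n, m = n + 2 := ⟨m - 2, by omega⟩
  have h2 : 2 ≤ Fintype.card F := Fintype.one_lt_card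
  obtain ⟨a, b, hab⟩ : ∃ a b : SpG (n + 2) F,
      Subgroup.closure ({a, b} : Set (SpG (n + 2) F)) = ⊤ := by
    rcases Nat.lt_or_ge 2 (Fintype.card F) with h | h
    · exact two_gen_ge_three h
    · exact two_gen_two (le_antisymm h h2)
  refine ⟨QuotientGroup.mk' _ a, QuotientGroup.mk' _ b, ?_⟩
  have := congrArg (Subgroup.map (QuotientGroup.mk' (Subgroup.center (SpG (n + 2) F)))) hab
  rw [MonoidHom.map_closure, Set.image_pair, ← MonoidHom.range_eq_map,
    MonoidHom.range_eq_top.2 (QuotientGroup.mk'_surjective _)] at this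
  exact this

end Cfsg.Agent.Lib.Helper41.SpGen
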