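import Cfsg.Agent.Lib.Helper41.SpGen.Defs2

set_option autoImplicit false

namespace Cfsg.Agent.Lib.Helper41.SpGen

open Matrix Cfsg Cfsg.Agent.Lib.Helper17 Cfsg.Agent.Lib.Helper17.SympRoot

variable {F : Type*} [Field F] {n : ℕ}

theorem dg_mul (s t : Fˣ) : dg s * dg t = dg (s * t) := by
  apply Subtype.ext
  show (dg s).1 * (dg t).1 = (dg (s * t)).1
  simp only [dg, Matrix.mul_fin_two]
  simp [mul_comm]

theorem dg_one : dg (1 : Fˣ) = 1 := by
  apply Subtype.ext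
  show (dg (1 : Fˣ)).1 = 1
  simp [dg, Matrix.one_fin_two]

theorem dg_pow (t : Fˣ) (j : ℕ) : dg t ^ j = dg (t ^ j) := by
  induction j with
  | zero => rw [pow_zero, pow_zero, dg_one]
  | succ j ih => rw [pow_succ, pow_succ, ih, dg_mul]

theorem act_hh (t : Fˣ) (x : VV (n + 2) F) :
    act (hh t : SpG (n + 2) F) x =
      x + (((t : F) - 1) * x (Sum.inr 1)) • ff 1 + ((((t⁻¹ : Fˣ) : F) - 1) * x (Sum.inl 1)) • ee 1 := by
  unfold act hh
  rw [phi_mulVec, Lm_apply, form_ee, form_ff]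
  have h00 : dg t 0 0 = (t : F) := rfl
  have h01 : dg t 0 1 = (0 : F) := rfl
  have h10 : dg t 1 0 = (0 : F) := rfl
  have h11 : dg t 1 1 = ((t⁻¹ : Fˣ) : F) := rfl
  rw [h00, h01, h10, h11]
  module

theorem hh_pow (t : Fˣ) (j : ℕ) : (hh t : SpG (n + 2) F) ^ j = hh (t ^ j) := by
  unfold hh
  rw [← map_pow, dg_pow]

theorem hh_one : (hh 1 : SpG (n + 2) F) = 1 := by
  unfold hh
  rw [dg_one, map_one]

end Cfsg.Agent.Lib.Helper41.SpGen
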