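import Cfsg.Agent.Lib.Helper41.SpGen.Defs2

set_option autoImplicit false

namespace Cfsg.Agent.Lib.Helper41.SpGen

open Matrix Cfsg Cfsg.Agent.Lib.Helper17 Cfsg.Agent.Lib.Helper17.SympRoot

variable {F : Type*} [Field F] {n : ℕ}

theorem one_ne_zero_fin : (1 : Fin (n + 2)) ≠ 0 := by
  intro h
  have := congrArg Fin.val h
  simp at this

theorem act_nn (x : VV (n + 2) F) :
    act (nn : SpG (n + 2) F) x = x + x (Sum.inr 0) • ff 1 - x (Sum.inl 1) • ee 0 := by
  have h10 : (1 : Fin (n + 2)) ≠ 0 := one_ne_zero_fin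
  rw [nn, act_mul, act_mul, act_tv, act_tv, act_tv]
  simp only [sympForm_add_right, form_ee, form_ff, Pi.add_apply, Pi.smul_apply, smul_eq_mul,
    ee_inl, ee_inr, ff_inl, ff_inr, if_neg h10, if_neg h10.symm]
  module

theorem act_nn_inv (x : VV (n + 2) F) :
    act (nn : SpG (n + 2) F)⁻¹ x = x - x (Sum.inr 0) • ff 1 + x (Sum.inl 1) • ee 0 := by
  have h10 : (1 : Fin (n + 2)) ≠ 0 := one_ne_zero_fin
  have h : act (nn : SpG (n + 2) F) (x - x (Sum.inr 0) • ff 1 + x (Sum.inl 1) • ee 0) = x := by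
    rw [act_nn]
    simp only [Pi.add_apply, Pi.sub_apply, Pi.smul_apply, smul_eq_mul, ee_inl, ee_inr, ff_inl,
      ff_inr, if_neg h10, if_neg h10.symm]
    module
  calc act (nn : SpG (n + 2) F)⁻¹ x
      = act (nn : SpG (n + 2) F)⁻¹ (act nn (x - x (Sum.inr 0) • ff 1 + x (Sum.inl 1) • ee 0)) := by
        rw [h]
    _ = _ := act_inv_act _ _

end Cfsg.Agent.Lib.Helper41.SpGen
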