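import Cfsg.Agent.Lib.Helper41.SpGen.Defs2

set_option autoImplicit false

namespace Cfsg.Agent.Lib.Helper41.SpGen

open Matrix Cfsg Cfsg.Agent.Lib.Helper17 Cfsg.Agent.Lib.Helper17.SympRoot

variable {F : Type*} [Field F] {m : ℕ}

theorem plane_mem {K : Subgroup (SpG m F)} {i : Fin m} (h1 : ee i ∈ SS K) (h2 : ff i ∈ SS K)
    (a b : F) : pl i a b ∈ SS K := by
  by_cases hb : b = 0
  · have := ss_smul a h1
    have e : pl i a b = a • ee i := by rw [hb]; simp [pl]
    rw [e]; exact this
  · have h3 := ss_act (h1 (a / b)) h2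
    rw [act_tv, form_ff_ee, if_pos rfl, mul_one] at h3
    have h4 := ss_smul b h3
    have e : pl i a b = b • (ff i + (a / b) • ee i) := by
      rw [pl, smul_add, smul_smul, mul_div_cancel₀ a hb, add_comm]
    rw [e]; exact h4

end Cfsg.Agent.Lib.Helper41.SpGen
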