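import Cfsg.Agent.Lib.Helper41.SpGen.NN
import Cfsg.Agent.Lib.Helper41.SpGen.HH

set_option autoImplicit false

namespace Cfsg.Agent.Lib.Helper41.SpGen

open Matrix Cfsg Cfsg.Agent.Lib.Helper17 Cfsg.Agent.Lib.Helper17.SympRoot

theorem comm_of_fix {F : Type*} [Field F] {m : ℕ} {g : SpG m F} {p : VV m F} (h : act g p = p)
    (c : F) : tv p c * g = g * tv p c := by
  have := conj_tv' g p c
  rw [h, mul_inv_eq_iff_eq_mul] at this
  exact this.symm

variable {F : Type*} [Field F] {n : ℕ}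

theorem act_nn_ee_zero : act (nn : SpG (n + 2) F) (ee 0) = ee 0 := by
  rw [act_nn, ee_inr, ee_inl, if_neg one_ne_zero_fin]; simp

theorem act_nn_inv_ee_zero : act (nn : SpG (n + 2) F)⁻¹ (ee 0) = ee 0 := by
  rw [act_nn_inv, ee_inr, ee_inl, if_neg one_ne_zero_fin]; simp

theorem act_nn_inv_ff_one : act (nn : SpG (n + 2) F)⁻¹ (ff 1) = ff 1 := by
  rw [act_nn_inv, ff_inr, ff_inl, if_neg one_ne_zero_fin.symm]; simp

theorem act_nn_ff_one : act (nn : SpG (n + 2) F) (ff 1) = ff 1 := by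
  rw [act_nn, ff_inr, ff_inl, if_neg one_ne_zero_fin.symm]; simp

theorem act_nn_inv_ff_zero : act (nn : SpG (n + 2) F)⁻¹ (ff 0) = ff 0 - ff 1 := by
  rw [act_nn_inv, ff_inr, ff_inl, if_pos rfl]; simp

theorem act_nn_ff_zero : act (nn : SpG (n + 2) F) (ff 0) = ff 0 + ff 1 := by
  rw [act_nn, ff_inr, ff_inl, if_pos rfl]; simp

theorem act_nn_ee_one : act (nn : SpG (n + 2) F) (ee 1) = ee 1 - ee 0 := by
  rw [act_nn, ee_inr, ee_inl, if_pos rfl]; simp

theorem act_hh_ee_zero (t : Fˣ) : act (hh t : SpG (n + 2) F) (ee 0) = ee 0 := by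
  rw [act_hh, ee_inr, ee_inl, if_neg one_ne_zero_fin]; simp

theorem act_hh_ff_zero (t : Fˣ) : act (hh t : SpG (n + 2) F) (ff 0) = ff 0 := by
  rw [act_hh, ff_inr, ff_inl, if_neg one_ne_zero_fin]; simp

theorem act_hh_ff_one (t : Fˣ) : act (hh t : SpG (n + 2) F) (ff 1) = (t : F) • ff 1 := by
  rw [act_hh, ff_inr, ff_inl, if_pos rfl]
  module

theorem sC_comm (t : Fˣ) (c : F) :
    tv (ee 0) c * (sC t : SpG (n + 2) F) = sC t * tv (ee 0) c := by
  apply comm_of_fix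
  rw [sC, act_mul, act_mul, act_nn_inv_ee_zero, act_hh_ee_zero, act_nn_ee_zero]

theorem sC_pow (t : Fˣ) (j : ℕ) : (sC t : SpG (n + 2) F) ^ j = sC (t ^ j) := by
  rw [sC, conj_pow, hh_pow, sC]

theorem sC_one : (sC 1 : SpG (n + 2) F) = 1 := by
  rw [sC, hh_one, mul_one, mul_inv_cancel]

theorem act_sC_ff_one (t : Fˣ) : act (sC t : SpG (n + 2) F) (ff 1) = (t : F) • ff 1 := by
  rw [sC, act_mul, act_mul, act_nn_inv_ff_one, act_hh_ff_one, act_smul, act_nn_ff_one]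

theorem act_sC_ff_zero (t : Fˣ) :
    act (sC t : SpG (n + 2) F) (ff 0) = pl 0 0 1 + pl 1 0 (1 - (t : F)) := by
  rw [sC, act_mul, act_mul, act_nn_inv_ff_zero, act_sub, act_hh_ff_zero, act_hh_ff_one, act_sub,
    act_smul, act_nn_ff_zero, act_nn_ff_one]
  simp only [pl]
  module

end Cfsg.Agent.Lib.Helper41.SpGen
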