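import Cfsg.Agent.Lib.Helper41.SpGen.SC

set_option autoImplicit false

namespace Cfsg.Agent.Lib.Helper41.SpGen

open Matrix Cfsg Cfsg.Agent.Lib.Helper17 Cfsg.Agent.Lib.Helper17.SympRoot

variable {F : Type*} [Field F] {n : ℕ}

theorem act_s3 (x : VV (n + 2) F) :
    act (s3 : SpG (n + 2) F) x
      = x - x (Sum.inl 1) • ff 1 + (x (Sum.inr 1) - x (Sum.inl 1)) • ee 1 := by
  rw [s3, act_mul, act_tv, act_tv]
  simp only [form_ee, form_ff, Pi.add_apply, Pi.smul_apply, smul_eq_mul, ff_inr, if_true, eq_self_iff_true]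
  module

theorem s3_cube (h2 : (2 : F) = 0) : (s3 : SpG (n + 2) F) ^ 3 = 1 := by
  apply ext_act
  intro x
  rw [pow_succ, pow_succ, pow_one, act_mul, act_mul, act_one]
  have e : act (s3 : SpG (n + 2) F) (act s3 (act s3 x))
      = x - ((2 : F) * x (Sum.inl 1)) • ee 1 - ((2 : F) * x (Sum.inr 1)) • ff 1 := by
    rw [act_s3 (act s3 (act s3 x)), act_s3 (act s3 x), act_s3 x]
    simp only [Pi.add_apply, Pi.sub_apply, Pi.smul_apply, smul_eq_mul, ee_inl, ee_inr, ff_inl,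
      ff_inr, if_true, eq_self_iff_true]
    module
  rw [e, h2]
  simp

theorem sD_cube (h2 : (2 : F) = 0) : (sD : SpG (n + 2) F) ^ 3 = 1 := by
  rw [sD, conj_pow, s3_cube h2, mul_one, mul_inv_cancel]

theorem sD_comm (c : F) : tv (ee 0) c * (sD : SpG (n + 2) F) = sD * tv (ee 0) c := by
  apply comm_of_fix
  rw [sD, act_mul, act_mul, act_nn_inv_ee_zero, act_s3, ee_inl, ee_inr, if_neg one_ne_zero_fin]
  simp [act_nn_ee_zero]

theorem act_sD_ff_zero : act (sD : SpG (n + 2) F) (ff 0) = pl 0 1 1 + pl 1 (-1) 0 := by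
  have h1 : act (s3 : SpG (n + 2) F) (ff 0) = ff 0 := by
    rw [act_s3, ff_inl, ff_inr, if_neg one_ne_zero_fin]; simp
  have h2 : act (s3 : SpG (n + 2) F) (ff 1) = ff 1 + ee 1 := by
    rw [act_s3, ff_inl, ff_inr, if_pos rfl]; simp
  rw [sD, act_mul, act_mul, act_nn_inv_ff_zero, act_sub, h1, h2, act_sub, act_add, act_nn_ff_zero,
    act_nn_ff_one, act_nn_ee_one]
  simp only [pl]
  module

end Cfsg.Agent.Lib.Helper41.SpGen
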