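import Cfsg.Agent.Lib.Helper41.SpGen.Defs2

set_option autoImplicit false

namespace Cfsg.Agent.Lib.Helper41.SpGen

open Matrix Cfsg Cfsg.Agent.Lib.Helper17 Cfsg.Agent.Lib.Helper17.SympRoot

section gen
variable {F : Type*} [Field F] {m : ℕ}

theorem tv_ee_pl (i : Fin m) (c a b : F) : act (tv (ee i) c) (pl i a b) = pl i (a + c * b) b := by
  rw [act_tv, form_ee, pl_inr, if_pos rfl]
  simp only [pl]; module

theorem tv_ff_pl (i : Fin m) (c a b : F) : act (tv (ff i) c) (pl i a b) = pl i a (b - c * a) := by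
  rw [act_tv, form_ff, pl_inl, if_pos rfl]
  simp only [pl]; module

theorem tv_ee_pl_ne {i j : Fin m} (h : i ≠ j) (c a b : F) :
    act (tv (ee i) c) (pl j a b) = pl j a b := by
  rw [act_tv, form_ee, pl_inr, if_neg h]
  simp

theorem tv_ff_pl_ne {i j : Fin m} (h : i ≠ j) (c a b : F) :
    act (tv (ff i) c) (pl j a b) = pl j a b := by
  rw [act_tv, form_ff, pl_inl, if_neg h]
  simp

end gen

variable {F : Type*} [Field F] {n : ℕ}

theorem act_w0_pl_zero (a b : F) : act (w0 : SpG (n + 2) F) (pl 0 a b) = pl 0 b (-a) := by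
  rw [w0, act_mul, act_mul, tv_ee_pl, tv_ff_pl, tv_ee_pl]
  congr 1 <;> ring

theorem act_w0_pl {i : Fin (n + 2)} (hi : i ≠ 0) (a b : F) :
    act (w0 : SpG (n + 2) F) (pl i a b) = pl i a b := by
  rw [w0, act_mul, act_mul, tv_ee_pl_ne hi.symm, tv_ff_pl_ne hi.symm, tv_ee_pl_ne hi.symm]

theorem act_rot_pl (i : Fin (n + 2)) (a b : F) :
    act (rot : SpG (n + 2) F) (pl i a b) = pl (finRotate (n + 2) i) a b := by
  rw [act_rot]
  funext x
  rcases x with j | j
  · simp only [Function.comp_apply, sg, Equiv.sumCongr_symm, Equiv.sumCongr_apply, Sum.map_inl,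
      pl_inl, Equiv.symm_apply_eq]
  · simp only [Function.comp_apply, sg, Equiv.sumCongr_symm, Equiv.sumCongr_apply, Sum.map_inr,
      pl_inr, Equiv.symm_apply_eq]

theorem finRotate_zero' : finRotate (n + 2) 0 = 1 := by
  rw [finRotate_succ_apply, zero_add]

theorem act_yy_pl_zero (a b : F) : act (yy : SpG (n + 2) F) (pl 0 a b) = pl 1 b (-a) := by
  rw [yy, act_mul, act_w0_pl_zero, act_rot_pl, finRotate_zero']

theorem act_yy_pl {i : Fin (n + 2)} (hi : i ≠ 0) (a b : F) :
    act (yy : SpG (n + 2) F) (pl i a b) = pl (finRotate (n + 2) i) a b := by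
  rw [yy, act_mul, act_w0_pl hi, act_rot_pl]

end Cfsg.Agent.Lib.Helper41.SpGen
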